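import Cfsg.Agent.Lib.Spor.LU35.Main
import Cfsg.Agent.Lib.Spor.Glue3

set_option autoImplicit false
set_option maxRecDepth 100000
set_option Elab.async false
set_option exponentiation.threshold 100000

namespace Cfsg.Agent.Spor.LU35
open Cfsg.Agent.PG Cfsg.Agent.Spor

def fx_lv : List (ℕ × List (List ℕ) × ℕ × ℕ) := [(0, [[0x021e1e181e1818141818181c], [0x021e1e1a1a1a1c1814181e18]], 8, 50),
  (1, [[0x021c1a1e181e14], [0x021e1e1e1a1a1a1c1418181e18]], 5, 42),
  (2, [[0x021c1c181e1e1e181418141a], [0x021c1c1c181c1c1c1418141a1c14]], 5, 30),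
  (3, [[0x021c1a1a1418181e]], 2, 2)]

theorem fx_ok : lbB LU35.A 5 5 fx_lv [] = true := by decide +kernel

theorem fx : FixTriv (K LU35.A 5) (bset (ivl 0 50)) := by
  have := lb_fixTriv LU35.hA fx_ok (by rw [KS_nil, LU35.card0]; decide +kernel) (B := bset (ivl 0 50))
    (fun q hq => mem_bset_of_bit (allL_spec (p := fun q => bit (ivl 0 50) q.1) (by decide +kernel) q hq))
  rwa [KS_nil] at this


end Cfsg.Agent.Spor.LU35
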